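import Cfsg.Agent.H904.FR.Half

/-!
# Generalised dicyclic subgroups and central products (helper904, S4970, piece UNI)
-/

set_option autoImplicit false

universe u

namespace Cfsg.Agent.H904.FR

open Cfsg Cfsg.Agent.H955.FS Cfsg.Agent.H721.FR

theorem fszs_of_sub {Γ : Type u} [Group Γ] (Y A : Subgroup Γ) [Finite Y] {z : Γ} (hzY : z ∈ Y)
    (hz : ∀ g ∈ Y, g * z = z * g) (hz2 : z * z = 1) (hA : ¬ Y ≤ A) (h : ∀ g ∈ Y, g ∉ A → g * g = z) : FSZs Y z := by
  classical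
  refine ⟨hzY, fsz_of_half (fun g => Subtype.ext (hz g g.2)) (Subtype.ext hz2) ?_⟩
  let A' : Subgroup Y := A.subgroupOf Y
  have hA' : A' ≠ ⊤ := fun h1 => hA (Subgroup.subgroupOf_eq_top.1 h1)
  have hidx : 2 ≤ A'.index := by
    have h1 : A'.index ≠ 1 := fun h2 => hA' (Subgroup.index_eq_one.1 h2)
    have h2 : A'.index ≠ 0 := Subgroup.index_ne_zero_of_finite
    omega
  have h1 := A'.card_mul_index
  have h2 : Nat.card A' * 2 ≤ Nat.card Y := by
    rw [← h1]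
    exact Nat.mul_le_mul_left _ hidx
  have h3 : Nat.card Y = Nat.card A' + Nat.card {g : Y // g ∉ A'} := by
    rw [← Nat.card_congr (Equiv.sumCompl fun g : Y => g ∈ A'), Nat.card_sum]
  have h4 : Nat.card {g : Y // g ∉ A'} ≤ Nat.card {g : Y // g * g = ⟨z, hzY⟩} :=
    Nat.card_le_card_of_injective (fun g => ⟨g.1, Subtype.ext (h g.1 g.1.2 fun h5 => g.2 (Subgroup.mem_subgroupOf.2 h5))⟩)
      fun a b hab => Subtype.ext (congrArg (fun x : {g : Y // g * g = ⟨z, hzY⟩} => x.1) hab)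
  omega

section

variable {Γ : Type u} [Group Γ]

/-- the elements of `A` and of `A t` -/
def dic (A : Subgroup Γ) (t : Γ) (h : ∀ a ∈ A, t * a * t⁻¹ = a⁻¹) (ht : t * t ∈ A) : Subgroup Γ where
  carrier := {g | g ∈ A ∨ g * t ∈ A}
  mul_mem' := by
    have h' : ∀ a ∈ A, t⁻¹ * a * t ∈ A := fun a ha => by
      have h1 := h _ (inv_mem ha)
      rw [inv_inv] at h1
      have h2 : t⁻¹ * a * t = a⁻¹ := by
        conv_lhs => rw [← h1]
        group
      rw [h2]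
      exact inv_mem ha
    rintro a b (ha | ha) (hb | hb)
    · exact Or.inl (mul_mem ha hb)
    · right
      show a * b * t ∈ A
      rw [mul_assoc]
      exact mul_mem ha hb
    · right
      have h1 : a * b * t = (a * t) * (t⁻¹ * b * t) := by group
      show a * b * t ∈ A
      rw [h1]
      exact mul_mem ha (h' b hb)
    · left
      have h1 : a * b = (a * t) * (t⁻¹ * (b * t) * t) * (t * t)⁻¹ := by group
      show a * b ∈ A
      rw [h1]
      exact mul_mem (mul_mem ha (h' _ hb)) (inv_mem ht)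
  one_mem' := Or.inl (one_mem _)
  inv_mem' := by
    rintro a (ha | ha)
    · exact Or.inl (inv_mem ha)
    · right
      have h1 : a⁻¹ * t = (t * (a * t)⁻¹ * t⁻¹) * (t * t) := by group
      show a⁻¹ * t ∈ A
      rw [h1, h _ (inv_mem ha), inv_inv]
      exact mul_mem ha ht

variable {A : Subgroup Γ} {t : Γ} (h : ∀ a ∈ A, t * a * t⁻¹ = a⁻¹) (ht : t * t ∈ A)

theorem le_dic : A ≤ dic A t h ht := fun _ ha => Or.inl ha

theorem mem_dic : t ∈ dic A t h ht := Or.inr ht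

theorem dic_le {K : Subgroup Γ} (hA : A ≤ K) (htK : t ∈ K) : dic A t h ht ≤ K := by
  rintro g (hg | hg)
  · exact hA hg
  · have h1 : g = (g * t) * t⁻¹ := by group
    rw [h1]
    exact mul_mem (hA hg) (inv_mem htK)

include h ht in
theorem dic_sq : (t * t) * (t * t) = 1 := by
  have h1 := h _ ht
  have h2 : t * (t * t) * t⁻¹ = t * t := by group
  rw [h2] at h1
  nth_rewrite 1 [h1]
  exact inv_mul_cancel _

theorem dic_central : ∀ g ∈ dic A t h ht, g * (t * t) = (t * t) * g := by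
  have h1 : ∀ a ∈ A, a * (t * t) = (t * t) * a := by
    intro a ha
    have h2 := h _ (mul_mem ha ht)
    have h3 : t * (a * (t * t)) * t⁻¹ = (t * a * t⁻¹) * (t * (t * t) * t⁻¹) := by group
    rw [h3, h a ha, h _ ht, ← mul_inv_rev] at h2
    exact (inv_injective h2).symm
  rintro g (hg | hg)
  · exact h1 g hg
  · have h2 := h1 _ hg
    have h3 : g * (t * t) = (g * t * (t * t)) * t⁻¹ := by group
    rw [h3, h2]
    group

theorem fszs_dic [Finite Γ] (htA : t ∉ A) : FSZs (dic A t h ht) (t * t) := by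
  refine fszs_of_sub _ A (le_dic h ht ht) (dic_central h ht) (dic_sq h ht) (fun h1 => htA (h1 (mem_dic h ht))) ?_
  rintro g (hg | hg) hgA
  · exact absurd hg hgA
  · have h1 := h _ hg
    have h2 : g * g = (g * t) * (t⁻¹ * (g * t) * t) * (t * t)⁻¹ := by group
    have h3 : t⁻¹ * (g * t) * t = (g * t)⁻¹ := by
      have h4 := h _ (inv_mem hg)
      rw [inv_inv] at h4
      conv_lhs => rw [← h4]
      group
    have h5 := dic_sq h ht
    rw [h2, h3, mul_inv_cancel, one_mul, eq_comm, eq_inv_iff_mul_eq_one]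
    exact h5

/-- powers of `c`, times powers of `z` -/
def cz (c z : Γ) (hz : z * z = 1) (hcz : c * z = z * c) : Subgroup Γ where
  carrier := {g | ∃ i : ℤ, g = c ^ i ∨ g = c ^ i * z}
  mul_mem' := by
    have hc : ∀ i : ℤ, z * c ^ i = c ^ i * z := fun i =>
      ((show Commute c z from hcz).zpow_left i).eq.symm
    rintro _ _ ⟨i, rfl | rfl⟩ ⟨j, rfl | rfl⟩
    · exact ⟨i + j, Or.inl (zpow_add _ _ _).symm⟩
    · exact ⟨i + j, Or.inr (by rw [zpow_add, mul_assoc])⟩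
    · exact ⟨i + j, Or.inr (by rw [zpow_add, mul_assoc, hc, mul_assoc])⟩
    · exact ⟨i + j, Or.inl (by rw [zpow_add, mul_assoc, ← mul_assoc z, hc, mul_assoc, hz, mul_one])⟩
  one_mem' := ⟨0, Or.inl (zpow_zero _).symm⟩
  inv_mem' := by
    have hc : ∀ i : ℤ, z * c ^ i = c ^ i * z := fun i =>
      ((show Commute c z from hcz).zpow_left i).eq.symm
    have hz' : z⁻¹ = z := inv_eq_of_mul_eq_one_left hz
    rintro _ ⟨i, rfl | rfl⟩
    · exact ⟨-i, Or.inl (zpow_neg _ _).symm⟩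
    · exact ⟨-i, Or.inr (by rw [mul_inv_rev, hz', ← zpow_neg, hc])⟩

theorem cz_le {c z : Γ} (hz : z * z = 1) (hcz : c * z = z * c) {K : Subgroup Γ} (hc : c ∈ K) (hzK : z ∈ K) :
    cz c z hz hcz ≤ K := by
  rintro _ ⟨i, rfl | rfl⟩
  · exact zpow_mem hc i
  · exact mul_mem (zpow_mem hc i) hzK

theorem mem_cz {c z : Γ} (hz : z * z = 1) (hcz : c * z = z * c) : c ∈ cz c z hz hcz := ⟨1, Or.inl (zpow_one _).symm⟩

theorem mem_cz' {c z : Γ} (hz : z * z = 1) (hcz : c * z = z * c) : z ∈ cz c z hz hcz :=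
  ⟨0, Or.inr (by rw [zpow_zero, one_mul])⟩

theorem cz_inv {c z : Γ} (hz : z * z = 1) (hcz : c * z = z * c) {t : Γ} (htc : t * c * t⁻¹ = c⁻¹)
    (htz : t * z = z * t) : ∀ a ∈ cz c z hz hcz, t * a * t⁻¹ = a⁻¹ := by
  have hc : ∀ i : ℤ, z * c ^ i = c ^ i * z := fun i =>
    ((show Commute c z from hcz).zpow_left i).eq.symm
  have hz' : z⁻¹ = z := inv_eq_of_mul_eq_one_left hz
  have h1 : ∀ i : ℤ, t * c ^ i * t⁻¹ = (c ^ i)⁻¹ := by
    intro i
    rw [← conj_zpow, htc, inv_zpow]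
  rintro _ ⟨i, rfl | rfl⟩
  · exact h1 i
  · have h2 : t * (c ^ i * z) * t⁻¹ = (t * c ^ i * t⁻¹) * (t * z * t⁻¹) := by group
    rw [h2, h1, htz, mul_inv_cancel_right, mul_inv_rev, hz', ← zpow_neg, hc]

/-- **central products** -/
theorem exists_glue {Δ : Type u} [Group Δ] [Finite Γ] [Finite Δ] (D : Subgroup Γ) (E : Subgroup Δ) (l : Δ →* Γ)
    (hcomm : ∀ d ∈ D, ∀ e ∈ E, d * l e = l e * d) {z : Γ} {w : Δ} (hD : FSZs D z) (hE : FSZs E w)
    (hz : ∀ g ∈ D, g * z = z * g) (hz2 : z * z = 1) (hw : ∀ g ∈ E, g * w = w * g) (hw2 : w * w = 1) :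
    ∃ Y : Subgroup Γ, (∀ g, g ∈ Y ↔ ∃ d ∈ D, ∃ e ∈ E, g = d * l e) ∧ FSZs Y (z * l w) := by
  let ψ : D × E →* Γ :=
    { toFun := fun x => x.1 * l x.2
      map_one' := by simp
      map_mul' := fun x y => by
        show (x.1 * y.1 : Γ) * l (x.2 * y.2) = x.1 * l x.2 * (y.1 * l y.2)
        rw [map_mul, mul_assoc, mul_assoc, ← mul_assoc (y.1 : Γ), hcomm y.1 y.1.2 x.2 x.2.2]
        simp only [mul_assoc] }
  obtain ⟨hzD, hD⟩ := hD
  obtain ⟨hwE, hE⟩ := hE
  have h1 := H855.FR.FSZ.prod (fun g => Subtype.ext (hz g g.2)) (Subtype.ext hz2)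
    (fun g => Subtype.ext (hw g g.2)) (Subtype.ext hw2) hD hE
  have h2 := H855.FR.FSZ.of_surjective ψ.rangeRestrict ψ.rangeRestrict_surjective h1
  refine ⟨ψ.range, fun g => ?_, ?_⟩
  · constructor
    · rintro ⟨x, rfl⟩
      exact ⟨x.1, x.1.2, x.2, x.2.2, rfl⟩
    · rintro ⟨d, hd, e, he, rfl⟩
      exact ⟨(⟨d, hd⟩, ⟨e, he⟩), rfl⟩
  · exact ⟨⟨(⟨z, hzD⟩, ⟨w, hwE⟩), rfl⟩, h2⟩

end

end Cfsg.Agent.H904.FR
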