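import Cfsg.Agent.H904.FR.Lift
import Cfsg.Agent.H904.FR.Dic

/-!
# The unipotent case: `(-1) ^ k` is a square (helper904, S4970, piece UNI)
-/

set_option autoImplicit false

universe u

namespace Cfsg.Agent.H904.FR

open Cfsg Cfsg.Agent.H955.FS Cfsg.Agent.H721.FR Cfsg.Agent.H721.SR Module

variable {F V : Type u} [Field F] [AddCommGroup V] [Module F V]

theorem zel_apply {ε : F} (hε : ε = 1 ∨ ε = -1) (v : V) : zel V ε v = ε • v := by
  unfold zel
  split_ifs with h
  · rw [h, one_smul]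
    rfl
  · rcases hε with h1 | h1
    · exact absurd h1 h
    · rw [h1, neg_smul, one_smul]
      rfl

theorem exists_res [FiniteDimensional F V] {g : V ≃ₗ[F] V} {M : Submodule F V} (hg : ∀ x ∈ M, g x ∈ M) :
    ∃ a : M ≃ₗ[F] M, ∀ x : M, (a x : V) = g x := by
  let f : M →ₗ[F] M := (g : V →ₗ[F] V).restrict hg
  have hf : Function.Injective f := fun x y hxy => Subtype.ext (g.injective (congrArg Subtype.val hxy))
  exact ⟨LinearEquiv.ofInjectiveEndo f hf, fun x => rfl⟩

theorem th_of_comm (h2 : (2 : F) ≠ 0) {c : V ≃ₗ[F] V} {N : V →ₗ[F] V} (hN : Cay c N) {g : V ≃ₗ[F] V}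
    (hg : g * c * g⁻¹ = c) : Th N g 1 := fun x => by
  rw [one_smul]
  exact hN.of_comm h2 hg x

theorem th_of_inv (h2 : (2 : F) ≠ 0) {c : V ≃ₗ[F] V} {N : V →ₗ[F] V} (hN : Cay c N) {g : V ≃ₗ[F] V}
    (hg : g * c * g⁻¹ = c⁻¹) : Th N g (-1) := fun x => by
  rw [neg_smul, one_smul]
  exact hN.of_inv h2 hg x

section

variable {B : V →ₗ[F] V →ₗ[F] F} {N : V →ₗ[F] V} {k : ℕ} {M : Submodule F V}

/-- the restriction acts on the form of `M` through `θ ^ k` -/
theorem bet_res {g : V ≃ₗ[F] V} (hgB : g ∈ Isom B) {θ : F} (hg : Th N g θ) {a : M ≃ₗ[F] M}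
    (ha : ∀ x : M, (a x : V) = g x) (x y : M) : bet B N k M (a x) (a y) = θ ^ k * bet B N k M x y := by
  rw [bet_apply, bet_apply, ha, ha, hg.pow, map_smul, smul_eq_mul, mem_isom.1 hgB]

/-- **Case I** -/
theorem cov_caseI [Finite F] [FiniteDimensional F V] {ε : F} {c : V ≃ₗ[F] V} {P : Subgroup (V ≃ₗ[F] V)}
    {lft : (M ≃ₗ[F] M) →* (V ≃ₗ[F] V)} {h : V ≃ₗ[F] V} (h2 : (2 : F) ≠ 0) (hε : ε = 1 ∨ ε = -1)
    (hc : c ∈ Isom B) (hPB : P ≤ Isom B)
    (hPc : ∀ g ∈ P, g * c * g⁻¹ = c ∨ g * c * g⁻¹ = c⁻¹) (hN : Cay c N) (hN0 : N ≠ 0) (hS : Std B N k M)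
    (hf : Full N k M lft h) (hPM : ∀ g ∈ P, ∀ x ∈ M, g x ∈ M) {ω : F} (hω : ω * ω = (-1) ^ k)
    (hM : FSZs (Isom (bet B N k M)) (zel M (ε * (-1) ^ k))) : Cov B ε c P := by
  have hfin : Finite V := Module.finite_of_finite F
  have hfinG : Finite (V ≃ₗ[F] V) := Finite.of_injective (fun g : V ≃ₗ[F] V => (g : V → V)) DFunLike.coe_injective
  have hfinM : Finite (M ≃ₗ[F] M) := Finite.of_injective (fun g : M ≃ₗ[F] M => (g : M → M)) DFunLike.coe_injective
  have hk1 : ((-1 : F)) ^ k = 1 ∨ ((-1 : F)) ^ k = -1 := neg_one_pow_eq_or F k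
  have hkk : ((-1 : F)) ^ k * (-1) ^ k = 1 := by
    rw [← mul_pow]
    norm_num
  have hω0 : ω ≠ 0 := by
    rintro rfl
    rw [mul_zero] at hω
    exact pow_ne_zero k (neg_ne_zero.2 one_ne_zero) hω.symm
  have hεk : ε * (-1) ^ k = 1 ∨ ε * (-1) ^ k = -1 := by
    rcases hε with h1 | h1 <;> rcases hk1 with h3 | h3 <;> rw [h1, h3] <;> norm_num
  let s : V ≃ₗ[F] V := LinearEquiv.smulOfNeZero F V ω hω0
  have hs : ∀ v, s v = ω • v := fun v => rfl
  let t : V ≃ₗ[F] V := s * h
  have ht : ∀ v, t v = ω • h v := fun v => rfl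
  have htt : ∀ v, (t * t) v = ((-1 : F)) ^ k • v := fun v => by
    show t (t v) = _
    rw [ht, ht, map_smul, hf.h_h, smul_smul, hω]
  have httc : ∀ g : V ≃ₗ[F] V, g * (t * t) = (t * t) * g := fun g => by
    refine LinearEquiv.ext fun v => ?_
    show g ((t * t) v) = (t * t) (g v)
    rw [htt, htt, map_smul]
  have htt2 : (t * t) * (t * t) = 1 := by
    refine LinearEquiv.ext fun v => ?_
    show (t * t) ((t * t) v) = v
    rw [htt, htt, smul_smul, hkk, one_smul]
  have htN : ∀ x, N (t x) = - t (N x) := fun x => by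
    rw [ht, ht, map_smul, hf.h_N, smul_neg]
  have htc : t * c * t⁻¹ = c⁻¹ := hN.inv_of htN
  have htB : t ∈ Isom B := fun x y => by
    rw [ht, ht, map_smul, map_smul, LinearMap.smul_apply, smul_eq_mul, smul_eq_mul, hf.h_form hS, ← mul_assoc,
      ← mul_assoc, hω, hkk, one_mul]
  have hinv := cz_inv htt2 (httc c) htc (httc t)
  have htA : t ∉ cz c (t * t) htt2 (httc c) := by
    intro h1
    have h3 : t ∈ Subgroup.centralizer ({c} : Set (V ≃ₗ[F] V)) := by
      refine cz_le htt2 (httc c) (K := Subgroup.centralizer ({c} : Set (V ≃ₗ[F] V))) ?_ ?_ h1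
      · rw [Subgroup.mem_centralizer_iff]
        intro x hx
        rw [Set.mem_singleton_iff.1 hx]
      · rw [Subgroup.mem_centralizer_iff]
        intro x hx
        rw [Set.mem_singleton_iff.1 hx]
        exact httc c
    rw [Subgroup.mem_centralizer_iff] at h3
    have h4 : t * c * t⁻¹ = c := by rw [mul_inv_eq_iff_eq_mul]; exact (h3 c rfl).symm
    apply hN0
    refine LinearMap.ext fun x => ?_
    have h5 : ∀ y, t (N y) = 0 := fun y => by
      have h6 := hN.of_comm h2 h4 y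
      rw [htN, neg_eq_iff_add_eq_zero, ← two_smul F] at h6
      exact (smul_eq_zero.1 h6).resolve_left h2
    have h6 := h5 x
    rw [← map_zero t] at h6
    exact t.injective h6
  -- the glueing
  have hcl : ∀ e : M ≃ₗ[F] M, c * lft e = lft e * c := fun e => by
    have h1 := hN.comm_of (g := lft e) (fun x => hf.lft_N e x)
    rw [mul_inv_eq_iff_eq_mul] at h1
    exact h1.symm
  have htl : ∀ e : M ≃ₗ[F] M, t * lft e = lft e * t := fun e => by
    refine LinearEquiv.ext fun v => ?_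
    show t (lft e v) = lft e (t v)
    rw [ht, ht, map_smul, hf.h_lft]
  obtain ⟨Y, hY, hYz⟩ := exists_glue (dic (cz c (t * t) htt2 (httc c)) t hinv (mem_cz' htt2 (httc c)))
    (Isom (bet B N k M)) lft (by
      intro d hd e _
      have h1 : dic (cz c (t * t) htt2 (httc c)) t hinv (mem_cz' htt2 (httc c)) ≤ Subgroup.centralizer {lft e} := by
        refine dic_le _ _ (cz_le _ _ ?_ ?_) ?_
        · rw [Subgroup.mem_centralizer_iff]
          rintro _ rfl
          exact (hcl e).symm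
        · rw [Subgroup.mem_centralizer_iff]
          rintro _ rfl
          exact httc _
        · rw [Subgroup.mem_centralizer_iff]
          rintro _ rfl
          exact (htl e).symm
      exact (Subgroup.mem_centralizer_iff.1 (h1 hd) _ rfl).symm)
    (fszs_dic hinv (mem_cz' htt2 (httc c)) htA) hM (dic_central _ _) htt2 (by
      intro g _
      refine LinearEquiv.ext fun v => ?_
      show g (zel M (ε * (-1) ^ k) v) = zel M (ε * (-1) ^ k) (g v)
      rw [zel_apply hεk, zel_apply hεk, map_smul]) (by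
      refine LinearEquiv.ext fun v => ?_
      show zel M (ε * (-1) ^ k) (zel M (ε * (-1) ^ k) v) = v
      rw [zel_apply hεk, zel_apply hεk, smul_smul]
      rcases hεk with h1 | h1 <;> rw [h1] <;> simp)
  have hz : t * t * lft (zel M (ε * (-1) ^ k)) = zel V ε := by
    refine hf.ext' fun i x => ?_
    show (t * t) (lft (zel M (ε * (-1) ^ k)) ((N ^ i) (x : V))) = zel V ε ((N ^ i) (x : V))
    rw [htt, hf.lft, zel_apply hεk, zel_apply hε]
    show ((-1 : F)) ^ k • (N ^ i) ((ε * (-1) ^ k) • (x : V)) = ε • (N ^ i) (x : V)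
    rw [map_smul, smul_smul]
    congr 1
    linear_combination ε * hkk
  rw [hz] at hYz
  have hdB : dic (cz c (t * t) htt2 (httc c)) t hinv (mem_cz' htt2 (httc c)) ≤ Isom B :=
    dic_le _ _ (cz_le _ _ hc (mul_mem htB htB)) htB
  refine ⟨Y, ?_, ?_, ?_, hYz⟩
  · intro g hg
    obtain ⟨d, hd, e, he, rfl⟩ := (hY g).1 hg
    refine mul_mem (hdB hd) fun x y => ?_
    rw [hf.lft_form hS (s := 1) (fun x y => by rw [one_mul]; exact he x y), one_mul]
  · exact (hY c).2 ⟨c, le_dic _ _ (mem_cz _ _), 1, one_mem _, by rw [map_one, mul_one]⟩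
  · intro g hg
    obtain ⟨a, ha⟩ := exists_res (hPM g hg)
    rcases hPc g hg with h1 | h1
    · have h3 := th_of_comm h2 hN h1
      refine (hY g).2 ⟨1, one_mem _, a, fun x y => ?_, ?_⟩
      · rw [bet_res (hPB hg) h3 ha, one_pow, one_mul]
      · rw [one_mul]
        exact hf.eq_lft h3 ha
    · have h3 := th_of_inv h2 hN h1
      let b : M ≃ₗ[F] M := LinearEquiv.smulOfNeZero F M ω⁻¹ (inv_ne_zero hω0) * a
      have hb : ∀ x, b x = ω⁻¹ • a x := fun x => rfl
      refine (hY g).2 ⟨t, mem_dic _ _, b, fun x y => ?_, ?_⟩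
      · rw [hb, hb, map_smul, map_smul, LinearMap.smul_apply, smul_eq_mul, smul_eq_mul, bet_res (hPB hg) h3 ha,
          ← hω]
        field_simp
      · rw [hf.eq_h_lft h3 ha]
        refine LinearEquiv.ext fun v => ?_
        show h (lft a v) = t (lft b v)
        have h4 : lft b = LinearEquiv.smulOfNeZero F V ω⁻¹ (inv_ne_zero hω0) * lft a := by
          refine hf.ext' fun i x => ?_
          show lft b ((N ^ i) (x : V)) = ω⁻¹ • lft a ((N ^ i) (x : V))
          rw [hf.lft, hf.lft, hb]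
          exact map_smul (N ^ i) ω⁻¹ (a x : V)
        rw [h4, ht]
        show h (lft a v) = ω • h (ω⁻¹ • lft a v)
        rw [map_smul, smul_smul, mul_inv_cancel₀ hω0, one_smul]

end

end Cfsg.Agent.H904.FR
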