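import Cfsg.Agent.H904.FR.Case1
import Cfsg.Agent.H138.FR.Lift

/-!
# The unipotent case: `(-1) ^ k = -1`, `dim M ≥ 3` (helper904, S4970, piece UNI)
-/

set_option autoImplicit false

universe u

namespace Cfsg.Agent.H904.FR

open Cfsg Cfsg.Agent.H955.FS Cfsg.Agent.H721.FR Cfsg.Agent.H721.SR Cfsg.Agent.H957.FR Module

variable {F V : Type u} [Field F] [AddCommGroup V] [Module F V]

/-- the group induced on `M` -/
def resG (P : Subgroup (V ≃ₗ[F] V)) (M : Submodule F V) : Subgroup (M ≃ₗ[F] M) where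
  carrier := {a | ∃ g ∈ P, ∀ x : M, (a x : V) = g x}
  mul_mem' := by
    rintro a b ⟨g, hg, ha⟩ ⟨g', hg', hb⟩
    refine ⟨g * g', mul_mem hg hg', fun x => ?_⟩
    show (a (b x) : V) = g (g' x)
    rw [ha, hb]
  one_mem' := ⟨1, one_mem _, fun x => rfl⟩
  inv_mem' := by
    rintro a ⟨g, hg, ha⟩
    refine ⟨g⁻¹, inv_mem hg, fun x => ?_⟩
    have h1 := ha (a⁻¹ x)
    have h2 : a (a⁻¹ x) = x := a.apply_symm_apply x
    rw [h2] at h1
    rw [h1]
    exact (g.symm_apply_apply _).symm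

theorem resG_isPGroup {P : Subgroup (V ≃ₗ[F] V)} {M : Submodule F V} {p : ℕ} (hP : IsPGroup p P) :
    IsPGroup p (resG P M) := by
  rintro ⟨a, g, hg, ha⟩
  obtain ⟨n, hn⟩ := hP ⟨g, hg⟩
  refine ⟨n, Subtype.ext ?_⟩
  have h1 : ∀ (m : ℕ) (x : M), ((a ^ m) x : V) = (g ^ m) x := by
    intro m
    induction m with
    | zero => exact fun x => rfl
    | succ m ih =>
      intro x
      rw [pow_succ, pow_succ]
      show ((a ^ m) (a x) : V) = (g ^ m) (g x)
      rw [ih, ha]
  have h2 : g ^ p ^ n = 1 := congrArg Subtype.val hn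
  show a ^ p ^ n = 1
  refine LinearEquiv.ext fun x => Subtype.ext ?_
  rw [h1, h2]
  rfl

/-- the elements conjugating `t` to `t` or `-t` -/
def pmT (t : V ≃ₗ[F] V) : Subgroup (V ≃ₗ[F] V) where
  carrier := {g | g * t * g⁻¹ = t ∨ g * t * g⁻¹ = t * LinearEquiv.neg F}
  mul_mem' := by
    have h : ∀ a b : V ≃ₗ[F] V, (a * b) * t * (a * b)⁻¹ = a * (b * t * b⁻¹) * a⁻¹ := fun a b => by group
    have h' : ∀ a : V ≃ₗ[F] V, a * (t * LinearEquiv.neg F) * a⁻¹ = (a * t * a⁻¹) * LinearEquiv.neg F := fun a => by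
      rw [← mul_assoc, mul_assoc (a * t), ← neg_comm a⁻¹]
      group
    rintro a b (ha | ha) (hb | hb)
    · exact Or.inl (by rw [h, hb, ha])
    · exact Or.inr (by rw [h, hb, h', ha])
    · exact Or.inr (by rw [h, hb, ha])
    · exact Or.inl (by rw [h, hb, h', ha, mul_assoc, neg_neg', mul_one])
  one_mem' := Or.inl (by group)
  inv_mem' := by
    rintro a (ha | ha)
    · left
      have h1 : t = a⁻¹ * (a * t * a⁻¹) * a := by group
      rw [ha] at h1
      rw [inv_inv]
      exact h1.symm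
    · right
      have h1 : t = a⁻¹ * (a * t * a⁻¹) * a := by group
      rw [ha, ← mul_assoc, mul_assoc (a⁻¹ * t), ← neg_comm a, ← mul_assoc] at h1
      rw [inv_inv]
      nth_rewrite 2 [h1]
      rw [mul_assoc (a⁻¹ * t * a), neg_neg', mul_one]

section

variable {B : V →ₗ[F] V →ₗ[F] F} {N : V →ₗ[F] V} {k : ℕ} {M : Submodule F V}

/-- **Case II, large `M`** -/
theorem red_caseII [Finite F] [FiniteDimensional F V] {ε : F} {c : V ≃ₗ[F] V} {P : Subgroup (V ≃ₗ[F] V)}
    {lft : (M ≃ₗ[F] M) →* (V ≃ₗ[F] V)} {h : V ≃ₗ[F] V} (h2 : (2 : F) ≠ 0) (hB : ∀ x y, B x y = ε * B y x)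
    (hnd : ∀ x, (∀ y, B x y = 0) → x = 0) (hε : ε * (-1) ^ k = -1) (hP : IsPGroup 2 P)
    (hPB : P ≤ Isom B)
    (hPc : ∀ g ∈ P, g * c * g⁻¹ = c ∨ g * c * g⁻¹ = c⁻¹) (hN : Cay c N) (hS : Std B N k M)
    (hf : Full N k M lft h) (hPM : ∀ g ∈ P, ∀ x ∈ M, g x ∈ M) (hM : 3 ≤ finrank F M) :
    Red B (Subgroup.closure {c} ⊔ P) := by
  have hθ : ∀ g ∈ P, ∃ θ : F, Th N g θ := by
    intro g hg
    rcases hPc g hg with h1 | h1
    · exact ⟨1, th_of_comm h2 hN h1⟩
    · exact ⟨-1, th_of_inv h2 hN h1⟩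
  have hsim : ∀ a ∈ resG P M, ∃ s : F, ∀ x y, bet B N k M (a x) (a y) = s * bet B N k M x y := by
    rintro a ⟨g, hg, ha⟩
    obtain ⟨θ, hgθ⟩ := hθ g hg
    exact ⟨θ ^ k, bet_res (hPB hg) hgθ ha⟩
  have hsymM : ∀ x y, bet B N k M x y = (-1 : F) * bet B N k M y x := fun x y => by
    rw [← hε]
    exact hS.bet_symm hB x y
  have hred : Red (bet B N k M) (resG P M) := symp_pair h2 (fun x y => by rw [hsymM, neg_one_mul]) hS.bet_nondeg hM
    (resG P M) (resG_isPGroup hP) hsim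
  obtain ⟨t, ht, htt, ht1, htn, htP⟩ := Cfsg.Agent.H138.FR.exists_invol_of_red h2 (neg_ne_zero.2 one_ne_zero) hsymM hsim
    hred
  have hinj : ∀ a b : M ≃ₗ[F] M, lft a = lft b → a = b := by
    intro a b hab
    refine LinearEquiv.ext fun x => Subtype.ext ?_
    rw [← hf.lft_M, ← hf.lft_M, hab]
  have hneg : lft (LinearEquiv.neg F) = LinearEquiv.neg F := by
    refine hf.ext' fun i x => ?_
    rw [hf.lft, neg_apply', neg_apply']
    exact map_neg _ _
  refine red_of_invol (t := lft t) h2 hB hnd ?_ ?_ ?_ ?_ ?_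
  · intro x y
    rw [hf.lft_form hS (s := 1) (fun x y => by rw [one_mul]; exact ht x y), one_mul]
  · rw [← map_mul, htt, map_one]
  · intro h1
    apply ht1
    apply hinj
    rw [h1, map_one]
  · intro h1
    apply htn
    apply hinj
    rw [h1, hneg]
  · have hle : Subgroup.closure {c} ⊔ P ≤ pmT (lft t) := by
      rw [sup_le_iff, Subgroup.closure_le, Set.singleton_subset_iff]
      constructor
      · left
        have h1 := hN.comm_of (g := lft t) (fun x => hf.lft_N t x)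
        rw [mul_inv_eq_iff_eq_mul] at h1 ⊢
        exact h1.symm
      · intro g hg
        obtain ⟨a, ha⟩ := exists_res (hPM g hg)
        have hga : g = lft a ∨ g = h * lft a := by
          rcases hPc g hg with h1 | h1
          · exact Or.inl (hf.eq_lft (th_of_comm h2 hN h1) ha)
          · exact Or.inr (hf.eq_h_lft (th_of_inv h2 hN h1) ha)
        have hconj : g * lft t * g⁻¹ = lft (a * t * a⁻¹) := by
          rcases hga with h1 | h1
          · rw [h1, map_mul, map_mul, map_inv]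
          · have h3 : ∀ b : M ≃ₗ[F] M, h * lft b = lft b * h := fun b => LinearEquiv.ext fun v => hf.h_lft b v
            rw [h1, mul_inv_rev, map_mul, map_mul, map_inv]
            have h4 : h * lft a * lft t * ((lft a)⁻¹ * h⁻¹) = h * (lft (a * t * a⁻¹)) * h⁻¹ := by
              rw [map_mul, map_mul, map_inv]
              group
            rw [h4, h3, mul_inv_cancel_right, map_mul, map_mul, map_inv]
        rcases htP a ⟨g, hg, ha⟩ with h1 | h1
        · exact Or.inl (by rw [hconj, h1])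
        · exact Or.inr (by rw [hconj, h1, map_mul, hneg])
    exact fun g hg => hle hg

end

end Cfsg.Agent.H904.FR
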