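import Cfsg.Agent.H855.FR.Wr
import Cfsg.Agent.Characters.SchurBound
import Cfsg.Agent.H646.FSIndexTwo

/-!
# Indicators: groups in which half of the elements are square roots of `z`; subgroups of index two
(helper904, S4970, piece UNI)
-/

set_option autoImplicit false

universe u

namespace Cfsg.Agent.H904.FR

open Cfsg Cfsg.Agent.H955.FS Cfsg.Agent.H721.FR Cfsg.Agent.Characters.Core

/-- If at least half of the elements are square roots of `z`, then `FSZ z`. -/
theorem fsz_of_half {G : Type u} [Group G] [Finite G] {z : G} (hz : ∀ g, g * z = z * g)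
    (hz2 : z * z = 1) (h : Nat.card G ≤ 2 * Nat.card {g : G // g * g = z}) : FSZ z := by
  classical
  have := Fintype.ofFinite G
  intro χ hχ h1
  have h2 := H855.FR.sum_eq hχ hz
  obtain ⟨n, hn, hn1⟩ := isIrr_apply_one hχ
  have h0 : χ 1 ≠ 0 := isIrr_apply_one_ne_zero hχ
  have h3 : ∑ s : G, χ (z * (s * s)) = -(Nat.card G : ℂ) := by
    apply mul_right_cancel₀ h0
    rw [h2, h1]
    ring
  have h4 := congrArg Complex.re h3
  rw [Complex.re_sum, Complex.neg_re, Complex.natCast_re] at h4
  -- the lower bound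
  have hlow : ∀ s : G, (if s * s = z then (n : ℝ) else -(n : ℝ)) ≤ (χ (z * (s * s))).re := by
    intro s
    split_ifs with hs
    · rw [hs, hz2, hn1, Complex.natCast_re]
    · have h5 := Cfsg.Agent.Characters.SchurBound.norm_le (isIrr_isCharacter hχ) hn1 (z * (s * s))
      have h6 := Complex.abs_re_le_norm (χ (z * (s * s)))
      have h7 := neg_abs_le (χ (z * (s * s))).re
      linarith
  have h5 : ∑ s : G, (if s * s = z then (n : ℝ) else -(n : ℝ)) ≤ -(Nat.card G : ℝ) := by
    rw [← h4]
    exact Finset.sum_le_sum fun s _ => hlow s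
  have h6 : ∑ s : G, (if s * s = z then (n : ℝ) else -(n : ℝ)) =
      (2 * (Nat.card {g : G // g * g = z} : ℝ) - Nat.card G) * n := by
    rw [Finset.sum_ite, Finset.sum_const, Finset.sum_const, nsmul_eq_mul, nsmul_eq_mul]
    have h7 : (Finset.univ.filter fun s : G => s * s = z).card = Nat.card {g : G // g * g = z} := by
      rw [Nat.card_eq_fintype_card, Fintype.card_subtype]
    have h8 := Finset.card_filter_add_card_filter_not (s := (Finset.univ : Finset G)) (fun s : G => s * s = z)
    rw [Finset.card_univ, ← Nat.card_eq_fintype_card, h7] at h8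
    rw [h7]
    have h9 : (Nat.card G : ℝ) = (Nat.card {g : G // g * g = z} : ℝ) +
        ((Finset.univ.filter fun s : G => ¬ s * s = z).card : ℝ) := by
      rw [← h8]
      push_cast
      ring
    rw [h9]
    ring
  rw [h6] at h5
  have h7 : (0 : ℝ) < Nat.card G := by exact_mod_cast Nat.card_pos
  have h8 : (0 : ℝ) ≤ 2 * (Nat.card {g : G // g * g = z} : ℝ) - Nat.card G := by
    have : (Nat.card G : ℝ) ≤ 2 * (Nat.card {g : G // g * g = z} : ℝ) := by exact_mod_cast h
    linarith
  have h9 := mul_nonneg h8 (Nat.cast_nonneg n)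
  linarith

/-- No indicator is `-1` if this holds, and more, in a subgroup of index two. -/
theorem good_true_of_index_two {G : Type u} [Group G] [Finite G] (N : Subgroup G) (hN : N.index = 2)
    (h : FSGood False N) : FSGood True G := by
  have := Fintype.ofFinite G
  have := Fintype.ofFinite N
  intro χ hχ
  rcases fsi_cases hχ with h1 | h1 | h1
  · exact Or.inr ⟨trivial, h1⟩
  · exact Or.inl h1
  exfalso
  obtain ⟨ψ, hψ, hne⟩ : ∃ ψ : N → ℂ, IsIrrCharacter N ψ ∧ classInner (fun h : N => χ h) ψ ≠ 0 := by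
    by_contra hno
    push Not at hno
    have h4 : (fun h : N => χ h) = 0 := classFunction_eq_zero
      (isCharacter_isClassFunction (isCharacter_comp N.subtype (isIrr_isCharacter hχ))) hno
    exact isIrr_apply_one_ne_zero hχ (congrFun h4 1)
  have h2 := Cfsg.Agent.H646.FSIndexTwo.mult_le_one N hN hχ hψ hne
  have h3 : Cfsg.Agent.H592.FSPar.fs ψ = 1 := by
    rcases h ψ hψ with h3 | ⟨h3, -⟩
    · exact h3
    · exact h3.elim
  obtain ⟨k, hk⟩ := Cfsg.Agent.H592.FSPar.even_mult N.subtype hχ h1 hψ h3
  have h4 : (1 : ℂ) = 2 * k := by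
    rw [← h2, ← hk]
    rfl
  have h5 : (1 : ℕ) = 2 * k := by exact_mod_cast h4
  omega

end Cfsg.Agent.H904.FR
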