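import Cfsg.Agent.H904.FR.Case2
import Cfsg.Agent.H47.Uni.CovPlane
import Cfsg.Agent.H76.FR.Red

/-!
# The unipotent case: assembly (helper904, S4970, piece UNI)
-/

set_option autoImplicit false

universe u

namespace Cfsg.Agent.H904.FR

open Cfsg Cfsg.Agent.H955.FS Cfsg.Agent.H721.FR Cfsg.Agent.H721.SR Cfsg.Agent.H957.FR Module

section

variable {F V : Type u} [Field F] [AddCommGroup V] [Module F V]
variable {B : V →ₗ[F] V →ₗ[F] F} {N : V →ₗ[F] V} {k : ℕ} {M : Submodule F V}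

/-- `range Phi` is invariant under `closure {c} ⊔ P` -/
theorem red_of_ne_top [FiniteDimensional F V] {c : V ≃ₗ[F] V} {P : Subgroup (V ≃ₗ[F] V)} (hN : Cay c N)
    (hS : Std B N k M) (hM : M ≠ ⊥) (hPN : ∀ g ∈ P, ∃ θ : F, θ * θ = 1 ∧ Th N g θ) (hPM : ∀ g ∈ P, ∀ x ∈ M, g x ∈ M)
    (htop : LinearMap.range (Phi N k M) ≠ ⊤) : Red B (Subgroup.closure {c} ⊔ P) := by
  have hle : Subgroup.closure {c} ⊔ P ≤ swp (LinearMap.range (Phi N k M)) (LinearMap.range (Phi N k M)) := by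
    rw [sup_le_iff, Subgroup.closure_le, Set.singleton_subset_iff]
    constructor
    · have h1 := hN.map_eq (U := LinearMap.range (Phi N k M)) fun x hx => range_inv hS.nil hx
      exact Or.inl ⟨h1, h1⟩
    · intro g hg
      obtain ⟨θ, hθ, hgθ⟩ := hPN g hg
      have h1 := range_map hS.nil hgθ hθ (hPM g hg) rfl
      exact Or.inl ⟨h1, h1⟩
  refine ⟨LinearMap.range (Phi N k M), ?_, htop, hS.ndOn, fun g hg => ?_⟩
  · intro h1
    apply hM
    rw [eq_bot_iff]
    intro x hx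
    have h3 := pow_mem_range (k := k) hS.nil 0 hx
    rw [h1] at h3
    exact h3
  · rcases mem_swp.1 (hle hg) with h1 | h1
    · exact Or.inl h1.1
    · exact Or.inl h1.1

theorem Full.injective {lft : (M ≃ₗ[F] M) →* (V ≃ₗ[F] V)} {h : V ≃ₗ[F] V} (hf : Full N k M lft h) :
    Function.Injective lft := by
  intro a b hab
  refine LinearEquiv.ext fun x => Subtype.ext ?_
  rw [← hf.lft_M, ← hf.lft_M, hab]

/-- the data of helper47 -/
theorem Full.dt {lft : (M ≃ₗ[F] M) →* (V ≃ₗ[F] V)} {h : V ≃ₗ[F] V} (hf : Full N k M lft h) (hS : Std B N k M)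
    {ε : F} (hB : ∀ x y, B x y = ε * B y x) {c : V ≃ₗ[F] V} (hN : Cay c N) :
    Cfsg.Agent.H47.Uni.Dt B ε c (k + 1) M (bet B N k M) lft h where
  sym := fun x y => by
    rw [Nat.add_sub_cancel]
    exact hS.bet_symm hB x y
  nd := hS.bet_nondeg
  isom := fun a ha x y => by
    rw [hf.lft_form hS (s := 1) (fun x y => by rw [one_mul]; exact ha x y), one_mul]
  sm := fun s x => by
    refine hf.ind (p := fun x => lft (LinearEquiv.smulOfUnit s) x = (s : F) • x) ?_ ?_ ?_ x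
    · simp
    · intro x y hx hy
      rw [map_add, hx, hy, smul_add]
    · intro i x
      rw [hf.lft]
      exact map_smul (N ^ i) (s : F) (x : V)
  hh2 := LinearEquiv.ext fun v => hf.h_h v
  hhB := fun x y => by
    rw [Nat.add_sub_cancel]
    exact hf.h_form hS x y
  hhc := hN.inv_of hf.h_N
  hht := fun a => LinearEquiv.ext fun v => (hf.h_lft a v).symm
  ct := fun a => by
    have h1 := hN.comm_of (g := lft a) (fun x => hf.lft_N a x)
    rwa [mul_inv_eq_iff_eq_mul] at h1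

/-- the elements of `P` -/
theorem Full.inP {lft : (M ≃ₗ[F] M) →* (V ≃ₗ[F] V)} {h : V ≃ₗ[F] V} (hf : Full N k M lft h) [FiniteDimensional F V]
    (h2 : (2 : F) ≠ 0) {c : V ≃ₗ[F] V} (hN : Cay c N) {g : V ≃ₗ[F] V} (hgB : g ∈ Isom B)
    (hgc : g * c * g⁻¹ = c ∨ g * c * g⁻¹ = c⁻¹) (hgM : ∀ x ∈ M, g x ∈ M) :
    Cfsg.Agent.H47.Uni.InP (k + 1) M (bet B N k M) lft h g := by
  obtain ⟨a, ha⟩ := exists_res hgM
  rcases hgc with h1 | h1
  · have h3 := th_of_comm h2 hN h1
    refine Or.inl ⟨a, fun x y => ?_, hf.eq_lft h3 ha⟩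
    rw [bet_res hgB h3 ha, one_pow, one_mul]
  · have h3 := th_of_inv h2 hN h1
    refine Or.inr ⟨a, fun x y => ?_, hf.eq_h_lft h3 ha⟩
    rw [Nat.add_sub_cancel]
    exact bet_res hgB h3 ha x y

end

/-- **FR-UNI**, for any 2-group -/
theorem cov_uni_gen {F V : Type u} [Field F] [Finite F] [AddCommGroup V] [Module F V] [FiniteDimensional F V]
    {B : V →ₗ[F] V →ₗ[F] F} {ε : F} (hF : Fm B ε) (hI : ∀ m < finrank F V, Hyp.{u} m)
    {c : V ≃ₗ[F] V} {P : Subgroup (V ≃ₗ[F] V)} (hc : c ∈ Isom B) (hc1 : c ≠ 1) (hu : ∃ a : ℕ, c ^ (ringChar F) ^ a = 1)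
    (hPB : P ≤ Isom B) (hP : IsPGroup 2 P) (hPc : ∀ g ∈ P, g * c * g⁻¹ = c ∨ g * c * g⁻¹ = c⁻¹) : Cov B ε c P := by
  classical
  have h2 := hF.two
  have hfin : Finite V := Module.finite_of_finite F
  obtain ⟨N, hN⟩ := exists_cay h2 hu
  have hN0 := hN.ne_zero hc1
  have hε : ε = 1 ∨ ε = -1 := hF.eps.imp id fun h => h.1
  have hεε : ε * ε = 1 := by
    rcases hε with h | h <;> rw [h] <;> norm_num
  have hskew : ∀ x y, B (N x) y = - B x (N y) := fun x y => hN.skew h2 hc x y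
  -- the exponent
  obtain ⟨k, hk1, hk2, hk0⟩ : ∃ k : ℕ, N ^ (k + 1) = 0 ∧ N ^ k ≠ 0 ∧ k ≠ 0 := by
    have h3 : ∃ n, N ^ n = 0 := hN.nil
    have h4 : Nat.find h3 ≠ 0 := by
      intro h5
      have h6 := Nat.find_spec h3
      rw [h5, pow_zero] at h6
      apply hN0
      refine LinearMap.ext fun x => ?_
      have h7 : x = 0 := LinearMap.congr_fun h6 x
      rw [h7, map_zero, map_zero]
    obtain ⟨k, hk⟩ := Nat.exists_eq_succ_of_ne_zero h4
    refine ⟨k, ?_, Nat.find_min h3 (by omega), ?_⟩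
    · have := Nat.find_spec h3
      rwa [hk] at this
    · rintro rfl
      have h6 := Nat.find_spec h3
      rw [hk] at h6
      exact hN0 (by simpa using h6)
  have hPN : ∀ g ∈ P, ∃ θ : F, θ * θ = 1 ∧ Th N g θ := by
    intro g hg
    rcases hPc g hg with h1 | h1
    · exact ⟨1, one_mul 1, th_of_comm h2 hN h1⟩
    · exact ⟨-1, by norm_num, th_of_inv h2 hN h1⟩
  have hcard : (Nat.card P : F) ≠ 0 := by
    have hfinG : Finite (V ≃ₗ[F] V) :=
      Finite.of_injective (fun g : V ≃ₗ[F] V => (g : V → V)) DFunLike.coe_injective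
    have h5 : Finite P := inferInstance
    obtain ⟨n, hn⟩ := IsPGroup.iff_card.1 hP
    rw [hn]
    push_cast
    exact pow_ne_zero _ h2
  obtain ⟨M, hPM, hM0, hS⟩ := exists_std h2 hεε hF.symm hF.nondeg hskew hk1 hk2 hcard hPB hPN
  by_cases htop : LinearMap.range (Phi N k M) = ⊤
  swap
  · exact Cfsg.Agent.H76.FR.cov_of_red hF hI hc hPB (red_of_ne_top hN hS hM0 hPN hPM htop)
  obtain ⟨hdim, lft, h, hf⟩ := exists_full hS htop
  have hM1 : 0 < finrank F M := by
    rw [Nat.pos_iff_ne_zero, Ne, Submodule.finrank_eq_zero]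
    exact hM0
  have hlt : finrank F M < finrank F V := by
    rw [hdim]
    have : 1 ≤ k := Nat.one_le_iff_ne_zero.2 hk0
    nlinarith
  have hkk := neg_one_pow_eq_or F k
  have hFm : (ε * (-1) ^ k = 1 ∨ (ε * (-1) ^ k = -1 ∧ Nat.card F % 4 = 1)) →
      FSZs (Isom (bet B N k M)) (zel M (ε * (-1) ^ k)) := fun h3 =>
    hI _ hlt F M (bet B N k M) _ ⟨h2, h3, hS.bet_symm hF.symm, hS.bet_nondeg⟩ rfl
  rcases Nat.even_or_odd k with hke | hko
  · have h3 : ((-1 : F)) ^ k = 1 := hke.neg_one_pow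
    refine cov_caseI h2 hε hc hPB hPc hN hN0 hS hf hPM (ω := 1) (by rw [h3, one_mul]) (hFm ?_)
    rw [h3, mul_one]
    exact hF.eps
  have h3 : ((-1 : F)) ^ k = -1 := hko.neg_one_pow
  have hq : Nat.card F % 2 = 1 := by
    have := Fintype.ofFinite F
    rw [Nat.card_eq_fintype_card]
    refine FiniteField.odd_card_of_char_ne_two fun h4 => h2 ?_
    have h5 : ((2 : ℕ) : F) = 0 := (ringChar.spec F 2).2 (by rw [h4])
    exact_mod_cast h5
  by_cases hq1 : Nat.card F % 4 = 1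
  · have h4 : IsSquare (-1 : F) := by
      have := Fintype.ofFinite F
      rw [FiniteField.isSquare_neg_one_iff, ← Nat.card_eq_fintype_card]
      omega
    obtain ⟨ω, hω⟩ := h4
    refine cov_caseI h2 hε hc hPB hPc hN hN0 hS hf hPM (ω := ω) (by rw [h3, hω]) (hFm ?_)
    rw [h3]
    rcases hε with h5 | h5
    · exact Or.inr ⟨by rw [h5, one_mul], hq1⟩
    · exact Or.inl (by rw [h5]; norm_num)
  have hq3 : Nat.card F % 4 = 3 := by omega
  have hε1 : ε = 1 := by
    rcases hF.eps with h5 | ⟨-, h5⟩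
    · exact h5
    · exact absurd h5 hq1
  have hεk : ε * (-1) ^ k = -1 := by rw [hε1, h3, one_mul]
  rcases Nat.lt_or_ge (finrank F M) 3 with h5 | h5
  · have h6 : finrank F M = 2 := by
      by_contra h7
      have h8 : finrank F M = 1 := by omega
      obtain ⟨v, hv0, hv⟩ := finrank_eq_one_iff'.1 h8
      apply hv0
      apply hS.bet_nondeg
      intro y
      obtain ⟨s, rfl⟩ := hv y
      rw [map_smul]
      have h9 := hS.bet_symm hF.symm v v
      rw [hεk, neg_one_mul, eq_neg_iff_add_eq_zero, ← two_mul] at h9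
      rw [(mul_eq_zero.1 h9).resolve_left h2, smul_zero]
    have ho : Odd (orderOf c) := by
      obtain ⟨a, ha⟩ := hu
      have h7 := orderOf_dvd_of_pow_eq_one ha
      refine Odd.of_dvd_nat (Odd.pow ?_) h7
      have hp : (ringChar F).Prime := by
        have hch : CharP F (ringChar F) := ringChar.charP F
        exact (CharP.char_is_prime_or_zero F (ringChar F)).resolve_right fun h => by
          have h1 : CharP F 0 := h ▸ hch
          have := CharP.charP_to_charZero F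
          exact not_finite F
      refine hp.odd_of_ne_two fun h8 => h2 ?_
      have h9 : ((2 : ℕ) : F) = 0 := (ringChar.spec F 2).2 (by rw [h8])
      exact_mod_cast h9
    refine Cfsg.Agent.H47.Uni.cov_plane hF (k := k + 1) hko.add_one (Nat.succ_ne_zero k) hq3 h6
      (hf.dt hS hF.symm hN) hf.injective (fun b hb x y => ?_) hc hc1 ho hP fun g hg =>
      hf.inP h2 hN (hPB hg) (hPc g hg) (hPM g hg)
    rw [hf.lft_form hS (s := -1) (fun x y => by rw [neg_one_mul]; exact hb x y), neg_one_mul]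
  · exact Cfsg.Agent.H76.FR.cov_of_red hF hI hc hPB
      (red_caseII h2 hF.symm hF.nondeg hεk hP hPB hPc hN hS hf hPM h5)

/-- **FR-UNI** -/
theorem cov_uni {F V : Type u} [Field F] [Finite F] [AddCommGroup V] [Module F V] [FiniteDimensional F V]
    {B : V →ₗ[F] V →ₗ[F] F} {ε : F} (hF : Fm B ε) (hI : ∀ m < finrank F V, Hyp.{u} m)
    {c : V ≃ₗ[F] V} {P : Subgroup (V ≃ₗ[F] V)} (hc : c ∈ Isom B) (hc1 : c ≠ 1) (hu : ∃ a : ℕ, c ^ (ringChar F) ^ a = 1)
    (hP : Mx B c P) : Cov B ε c P :=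
  cov_uni_gen hF hI hc hc1 hu hP.le hP.two hP.act

end Cfsg.Agent.H904.FR
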